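import Cfsg.Agent.H148.Oct.SepG2
import Cfsg.Agent.H814.G24Fld
import Cfsg.Agent.H583.SylRows

/-!
# The stabilizer in `G₂(4)` of a field of order 16 in the octonions is `SU(3, 4)` (helper814)

`K` has four elements, `n² + n + 1 = 0`, `w = wp n 1` (trace 1, norm `n`), `E = K[w]`. The perp of `E` is a three-dimensional
hermitian space over `E` with orthonormal basis `u₀, u₁, u₂ = u₀ u₁`.
-/

set_option autoImplicit false
set_option linter.unusedSectionVars false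
set_option linter.unusedSimpArgs false

namespace Cfsg.Agent.H814.LLE

open Cfsg.Lie Cfsg.Agent.H161.Oct Cfsg.Agent.H148.Oct Matrix

variable {K : Type*} [Field K]

/-- orthogonal to `1` and `w` (characteristic 2) -/
def Pp (n : K) (x : V K) : Prop := x 7 = x 0 ∧ x 5 = x 0 + n * x 2

theorem lw0 (n : K) (x : V K) : zornMul (wp n 1) x 0 = x 5 := by rw [mul0]; simp [wp]
theorem lw1 (n : K) (x : V K) : zornMul (wp n 1) x 1 = n * x 6 := by rw [mul1]; simp [wp]
theorem lw2 (n : K) (x : V K) : zornMul (wp n 1) x 2 = x 7 := by rw [mul2]; simp [wp]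
theorem lw3 (n : K) (x : V K) : zornMul (wp n 1) x 3 = -(n * x 4) := by rw [mul3]; simp [wp]
theorem lw4 (n : K) (x : V K) : zornMul (wp n 1) x 4 = x 4 + x 3 := by rw [mul4]; simp [wp]
theorem lw5 (n : K) (x : V K) : zornMul (wp n 1) x 5 = -(n * x 0) + x 5 := by rw [mul5]; simp [wp]; ring
theorem lw6 (n : K) (x : V K) : zornMul (wp n 1) x 6 = x 6 - x 1 := by rw [mul6]; simp [wp]; ring
theorem lw7 (n : K) (x : V K) : zornMul (wp n 1) x 7 = -(n * x 2) + x 7 := by rw [mul7]; simp [wp]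

/-- first coordinates -/
def al (n : K) (x : V K) : Fin 3 → K := ![x 0 + x 2, x 1 + x 3 + n * x 6, x 3 + n * x 6]

/-- second coordinates -/
def be (x : V K) : Fin 3 → K := ![x 2, x 4 + x 1, x 6 + x 4 + x 1]

/-- the orthonormal basis -/
def uu (K : Type*) [Field K] : Fin 3 → V K :=
  ![![1, 0, 0, 0, 0, 1, 0, 1], ![0, 1, 0, 0, 1, 0, 0, 0], ![0, 1, 0, 1, 1, 0, 0, 0]]

section chartwo

variable (h2 : (2 : K) = 0) {n : K} (hn : n ^ 2 - (-n + (-1)) = 0)

theorem Pp_uu (j : Fin 3) : Pp n (uu K j) := by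
  fin_cases j <;> simp [Pp, uu]

include h2 in
theorem Pp_iff {x : V K} : Pp n x ↔ tr x = 0 ∧ bl x (wp n 1) = 0 := by
  unfold Pp tr bl
  have e0 : (wp n 1 : V K) 0 = 0 := rfl
  have e1 : (wp n 1 : V K) 1 = 0 := rfl
  have e2 : (wp n 1 : V K) 2 = 1 := rfl
  have e3 : (wp n 1 : V K) 3 = 0 := rfl
  have e4 : (wp n 1 : V K) 4 = 0 := rfl
  have e5 : (wp n 1 : V K) 5 = -n := rfl
  have e6 : (wp n 1 : V K) 6 = 0 := rfl
  have e7 : (wp n 1 : V K) 7 = 1 := rfl
  rw [e0, e1, e2, e3, e4, e5, e6, e7]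
  constructor
  · rintro ⟨h7, h5⟩
    exact ⟨by rw [h7]; linear_combination x 0 * h2, by rw [h5]; ring⟩
  · rintro ⟨h7, h5⟩
    exact ⟨by linear_combination h7 - x 0 * h2, by linear_combination -h5⟩

include h2 in
theorem Pp_lw {x : V K} (hx : Pp n x) : Pp n (zornMul (wp n 1) x) := by
  obtain ⟨h7, h5⟩ := hx
  refine ⟨?_, ?_⟩
  · rw [lw7, lw0, h7, h5]
    linear_combination -(n * x 2) * h2
  · rw [lw5, lw0, lw2, h7]
    linear_combination -(n * x 0) * h2

include h2 in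
theorem decomp {x : V K} (hx : Pp n x) :
    x = ∑ j, (al n x j • uu K j + be x j • zornMul (wp n 1) (uu K j)) := by
  obtain ⟨h7, h5⟩ := hx
  rw [Fin.sum_univ_three]
  apply ext8 <;> simp only [Pi.add_apply, Pi.smul_apply, smul_eq_mul, lw0, lw1, lw2, lw3, lw4, lw5, lw6, lw7, uu, al, be,
    Matrix.cons_val_zero, Matrix.cons_val_one, Matrix.cons_val]
  · linear_combination (-x 2) * h2
  · linear_combination (-x 3 - n * x 6) * h2
  · ring
  · linear_combination (n * x 4 + n * x 1) * h2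
  · linear_combination (-x 3 - n * x 6 - x 4 - x 1 - x 1 - x 6) * h2
  · rw [h5]
    linear_combination (n * x 2 - x 2) * h2
  · linear_combination (x 6 + x 4 + x 1) * h2
  · rw [h7]
    linear_combination (-x 2) * h2

include h2 hn in
theorem form1 {x y : V K} (hx : Pp n x) (hy : Pp n y) :
    ∑ j, (al n x j * be y j + be x j * al n y j) = bl x y := by
  obtain ⟨hx7, hx5⟩ := hx
  obtain ⟨hy7, hy5⟩ := hy
  rw [Fin.sum_univ_three]
  simp only [al, be, bl, hx7, hx5, hy7, hy5, Matrix.cons_val_zero, Matrix.cons_val_one, Matrix.cons_val]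
  linear_combination (n*x 1*y 6 + n*x 2*y 2 + n*x 4*y 6 + n*x 6*y 1 + n*x 6*y 4 + n*x 6*y 6 + (-1)*x 0*y 0 + x 0*y 2 + x 1*y 1 + x 1*y 3 + x 1*y 4 + x 2*y 0 + x 2*y 2 + x 3*y 1 + x 3*y 4 + x 3*y 6 + x 4*y 1 + x 4*y 3 + x 6*y 3) * h2 + (0) * hn

include h2 hn in
theorem form0 {x y : V K} (hx : Pp n x) (hy : Pp n y) :
    ∑ j, (al n x j * al n y j + al n x j * be y j + n * be x j * be y j) = bl (zornMul (wp n 1) x) y + bl x y := by
  obtain ⟨hx7, hx5⟩ := hx
  obtain ⟨hy7, hy5⟩ := hy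
  rw [Fin.sum_univ_three]
  simp only [al, be, bl, lw0, lw1, lw2, lw3, lw4, lw5, lw6, lw7, hx7, hx5, hy7, hy5, Matrix.cons_val_zero,
    Matrix.cons_val_one, Matrix.cons_val]
  linear_combination (n*x 1*y 1 + n*x 1*y 4 + n*x 1*y 6 + (2)*n*x 2*y 2 + n*x 3*y 6 + n*x 4*y 1 + n*x 4*y 4 + (2)*n*x 6*y 1 + n*x 6*y 3 + (2)*n*x 6*y 4 + (-1)*x 0*y 0 + (2)*x 0*y 2 + x 1*y 1 + x 1*y 4 + x 2*y 0 + x 2*y 2 + (2)*x 3*y 1 + x 3*y 3 + x 3*y 4 + x 3*y 6 + x 4*y 1 + x 6*y 3 + (-1)*x 6*y 6) * h2 + ((2)*x 6*y 6) * hn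

/-- the real part of the product in `E` -/
def pr (n a b c d : K) : K := a * c + n * b * d

/-- the other part of the product in `E` -/
def pi (a b c d : K) : K := a * d + b * c + b * d

include h2 hn

theorem cross01 {x y : V K} (hx : Pp n x) (hy : Pp n y) (hz : Pp n (zornMul x y)) :
    al n (zornMul x y) 0 = pr n (al n x 1) (be x 1) (al n y 2) (be y 2) + pi (al n x 1) (be x 1) (al n y 2) (be y 2) +
      (pr n (al n x 2) (be x 2) (al n y 1) (be y 1) + pi (al n x 2) (be x 2) (al n y 1) (be y 1)) := by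
  obtain ⟨hx7, hx5⟩ := hx
  obtain ⟨hy7, hy5⟩ := hy
  obtain ⟨hz7, hz5⟩ := hz
  have t1 : zornMul x y 0 + zornMul x y 7 = 0 := by rw [hz7]; linear_combination zornMul x y 0 * h2
  have t2 : zornMul x y 0 + zornMul x y 5 + n * zornMul x y 2 = 0 := by
    rw [hz5]; linear_combination (zornMul x y 0 + n * zornMul x y 2) * h2
  simp only [al, be, pr, pi, mul0, mul1, mul2, mul3, mul4, mul5, mul6, mul7, hx7, hx5, hy7, hy5, Matrix.cons_val_zero,
    Matrix.cons_val_one, Matrix.cons_val] at t1 t2 ⊢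
  linear_combination t1 + t2 + ((-1)*n*x 0*y 2 + (-1)*n*x 1*y 1 + (-1)*n*x 1*y 4 + (-2)*n*x 1*y 6 + (-1)*n*x 2*y 0 + (-1)*n*x 2*y 2 + (-1)*n*x 3*y 6 + (-1)*n*x 4*y 1 + (-1)*n*x 4*y 4 + (-2)*n*x 4*y 6 + (-2)*n*x 6*y 1 + (-1)*n*x 6*y 3 + (-1)*n*x 6*y 4 + (-2)*x 0*y 0 + (-2)*x 1*y 1 + (-1)*x 1*y 3 + (-2)*x 1*y 4 + (-1)*x 1*y 6 + (-2)*x 3*y 1 + (-1)*x 3*y 3 + (-1)*x 3*y 4 + (-1)*x 3*y 6 + (-2)*x 4*y 1 + (-1)*x 4*y 3 + (-1)*x 4*y 4 + (-1)*x 6*y 1 + (-1)*x 6*y 3 + (-1)*x 6*y 4 + x 6*y 6) * h2 + ((-2)*x 6*y 6) * hn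

theorem cross02 {x y : V K} (hx : Pp n x) (hy : Pp n y) (hz : Pp n (zornMul x y)) :
    be (zornMul x y) 0 = pi (al n x 1) (be x 1) (al n y 2) (be y 2) + pi (al n x 2) (be x 2) (al n y 1) (be y 1) := by
  obtain ⟨hx7, hx5⟩ := hx
  obtain ⟨hy7, hy5⟩ := hy
  obtain ⟨hz7, hz5⟩ := hz
  have t1 : zornMul x y 0 + zornMul x y 7 = 0 := by rw [hz7]; linear_combination zornMul x y 0 * h2
  simp only [al, be, pr, pi, mul0, mul1, mul2, mul3, mul4, mul5, mul6, mul7, hx7, hx5, hy7, hy5, Matrix.cons_val_zero,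
    Matrix.cons_val_one, Matrix.cons_val] at t1 ⊢
  linear_combination t1 + ((-1)*n*x 1*y 6 + (-1)*n*x 2*y 2 + (-1)*n*x 4*y 6 + (-1)*n*x 6*y 1 + (-1)*n*x 6*y 4 + (-1)*n*x 6*y 6 + (-1)*x 0*y 0 + (-2)*x 1*y 1 + (-1)*x 1*y 3 + (-2)*x 1*y 4 + (-1)*x 1*y 6 + (-1)*x 3*y 1 + (-1)*x 3*y 4 + (-1)*x 3*y 6 + (-2)*x 4*y 1 + (-1)*x 4*y 3 + (-1)*x 4*y 4 + (-1)*x 6*y 1 + (-1)*x 6*y 3 + (-1)*x 6*y 4) * h2 + (0) * hn

theorem cross11 {x y : V K} (hx : Pp n x) (hy : Pp n y) :
    al n (zornMul x y) 1 = pr n (al n x 2) (be x 2) (al n y 0) (be y 0) + pi (al n x 2) (be x 2) (al n y 0) (be y 0) +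
      (pr n (al n x 0) (be x 0) (al n y 2) (be y 2) + pi (al n x 0) (be x 0) (al n y 2) (be y 2)) := by
  obtain ⟨hx7, hx5⟩ := hx
  obtain ⟨hy7, hy5⟩ := hy
  simp only [al, be, pr, pi, mul0, mul1, mul2, mul3, mul4, mul5, mul6, mul7, hx7, hx5, hy7, hy5, Matrix.cons_val_zero,
    Matrix.cons_val_one, Matrix.cons_val]
  linear_combination ((-1)*n*x 2*y 1 + (-2)*n*x 2*y 6 + (-1)*n*x 4*y 2 + (-1)*n*x 6*y 2 + (-1)*x 0*y 6 + (-1)*x 1*y 2 + (-1)*x 2*y 1 + (-1)*x 2*y 3 + (-1)*x 2*y 4 + (-1)*x 2*y 6 + (-1)*x 3*y 2 + (-1)*x 4*y 0 + (-1)*x 4*y 2 + (-1)*x 6*y 2) * h2 + (0) * hn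

theorem cross12 {x y : V K} (hx : Pp n x) (hy : Pp n y) :
    be (zornMul x y) 1 = pi (al n x 2) (be x 2) (al n y 0) (be y 0) + pi (al n x 0) (be x 0) (al n y 2) (be y 2) := by
  obtain ⟨hx7, hx5⟩ := hx
  obtain ⟨hy7, hy5⟩ := hy
  simp only [al, be, pr, pi, mul0, mul1, mul2, mul3, mul4, mul5, mul6, mul7, hx7, hx5, hy7, hy5, Matrix.cons_val_zero,
    Matrix.cons_val_one, Matrix.cons_val]
  linear_combination ((-1)*n*x 2*y 6 + (-1)*x 0*y 6 + (-1)*x 1*y 2 + (-1)*x 2*y 1 + (-1)*x 2*y 4 + (-1)*x 2*y 6 + (-1)*x 3*y 2 + (-1)*x 4*y 2 + (-1)*x 6*y 2) * h2 + (0) * hn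

theorem cross21 {x y : V K} (hx : Pp n x) (hy : Pp n y) :
    al n (zornMul x y) 2 = pr n (al n x 0) (be x 0) (al n y 1) (be y 1) + pi (al n x 0) (be x 0) (al n y 1) (be y 1) +
      (pr n (al n x 1) (be x 1) (al n y 0) (be y 0) + pi (al n x 1) (be x 1) (al n y 0) (be y 0)) := by
  obtain ⟨hx7, hx5⟩ := hx
  obtain ⟨hy7, hy5⟩ := hy
  simp only [al, be, pr, pi, mul0, mul1, mul2, mul3, mul4, mul5, mul6, mul7, hx7, hx5, hy7, hy5, Matrix.cons_val_zero,
    Matrix.cons_val_one, Matrix.cons_val]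
  linear_combination ((-1)*n*x 2*y 1 + (-1)*n*x 2*y 6 + (-1)*n*x 4*y 2 + (-1)*n*x 6*y 2 + (-1)*x 0*y 1 + (-1)*x 1*y 0 + (-2)*x 1*y 2 + (-2)*x 2*y 1 + (-1)*x 2*y 3 + (-1)*x 2*y 4 + (-1)*x 3*y 2 + (-1)*x 4*y 0 + (-1)*x 4*y 2) * h2 + (0) * hn

theorem cross22 {x y : V K} (hx : Pp n x) (hy : Pp n y) :
    be (zornMul x y) 2 = pi (al n x 0) (be x 0) (al n y 1) (be y 1) + pi (al n x 1) (be x 1) (al n y 0) (be y 0) := by
  obtain ⟨hx7, hx5⟩ := hx
  obtain ⟨hy7, hy5⟩ := hy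
  simp only [al, be, pr, pi, mul0, mul1, mul2, mul3, mul4, mul5, mul6, mul7, hx7, hx5, hy7, hy5, Matrix.cons_val_zero,
    Matrix.cons_val_one, Matrix.cons_val]
  linear_combination ((-1)*n*x 2*y 6 + (-1)*x 1*y 2 + (-2)*x 2*y 1 + (-1)*x 2*y 4 + (-1)*x 3*y 2 + (-1)*x 4*y 2 + x 6*y 0) * h2 + (0) * hn

theorem al_lw {x : V K} (hx : Pp n x) (j : Fin 3) : al n (zornMul (wp n 1) x) j = n * be x j := by
  obtain ⟨h7, h5⟩ := hx
  fin_cases j
  · show zornMul (wp n 1) x 0 + zornMul (wp n 1) x 2 = n * x 2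
    rw [lw0, lw2, h7, h5]
    linear_combination (x 0) * h2
  · show zornMul (wp n 1) x 1 + zornMul (wp n 1) x 3 + n * zornMul (wp n 1) x 6 = n * (x 4 + x 1)
    rw [lw1, lw3, lw6]
    linear_combination (n * x 6 - n * x 4 - n * x 1) * h2
  · show zornMul (wp n 1) x 3 + n * zornMul (wp n 1) x 6 = n * (x 6 + x 4 + x 1)
    rw [lw3, lw6]
    linear_combination (-n * x 4 - n * x 1) * h2

theorem be_lw {x : V K} (hx : Pp n x) (j : Fin 3) : be (zornMul (wp n 1) x) j = al n x j + be x j := by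
  obtain ⟨h7, h5⟩ := hx
  fin_cases j
  · show zornMul (wp n 1) x 2 = (x 0 + x 2) + x 2
    rw [lw2, h7]
    linear_combination (-x 2) * h2
  · show zornMul (wp n 1) x 4 + zornMul (wp n 1) x 1 = (x 1 + x 3 + n * x 6) + (x 4 + x 1)
    rw [lw4, lw1]
    linear_combination (-x 1) * h2
  · show zornMul (wp n 1) x 6 + zornMul (wp n 1) x 4 + zornMul (wp n 1) x 1 = (x 3 + n * x 6) + (x 6 + x 4 + x 1)
    rw [lw6, lw4, lw1]
    linear_combination (-x 1) * h2

omit h2 hn in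
theorem al_add (x y : V K) (j : Fin 3) : al n (x + y) j = al n x j + al n y j := by
  fin_cases j <;> simp only [al, Pi.add_apply, Fin.zero_eta, Fin.mk_one, Fin.reduceFinMk, Matrix.cons_val_zero,
    Matrix.cons_val_one, Matrix.cons_val] <;> ring

omit h2 hn in
theorem be_add (x y : V K) (j : Fin 3) : be (x + y) j = be x j + be y j := by
  fin_cases j <;> simp only [be, Pi.add_apply, Fin.zero_eta, Fin.mk_one, Fin.reduceFinMk, Matrix.cons_val_zero,
    Matrix.cons_val_one, Matrix.cons_val] <;> ring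

omit h2 hn in
theorem al_smul (c : K) (x : V K) (j : Fin 3) : al n (c • x) j = c * al n x j := by
  fin_cases j <;> simp only [al, Pi.smul_apply, smul_eq_mul, Fin.zero_eta, Fin.mk_one, Fin.reduceFinMk,
    Matrix.cons_val_zero, Matrix.cons_val_one, Matrix.cons_val] <;> ring

omit h2 hn in
theorem be_smul (c : K) (x : V K) (j : Fin 3) : be (c • x) j = c * be x j := by
  fin_cases j <;> simp only [be, Pi.smul_apply, smul_eq_mul, Fin.zero_eta, Fin.mk_one, Fin.reduceFinMk,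
    Matrix.cons_val_zero, Matrix.cons_val_one, Matrix.cons_val] <;> ring

theorem al_uu (j k : Fin 3) : al n (uu K j) k = if j = k then 1 else 0 := by
  fin_cases j <;> fin_cases k <;> simp [al, uu]
  linear_combination h2

theorem be_uu (j k : Fin 3) : be (uu K j) k = 0 := by
  fin_cases j <;> fin_cases k <;> simp [be, uu]
  all_goals linear_combination h2

end chartwo

/-! ### the field of order 16 -/

section field

variable [Fintype K] {n : K} {E : Type*} [Field E]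

/-- the coordinate vector -/
def vE (i : K →+* E) (θ : E) (n : K) (x : V K) : Fin 3 → E := fun j => i (al n x j) + i (be x j) * θ

variable (i : K →+* E) {θ : E}

theorem vE_add (x y : V K) : vE i θ n (x + y) = vE i θ n x + vE i θ n y := by
  funext j
  simp only [vE, Pi.add_apply, al_add, be_add, map_add]
  ring

theorem vE_smul (c : K) (x : V K) : vE i θ n (c • x) = i c • vE i θ n x := by
  funext j
  simp only [vE, Pi.smul_apply, smul_eq_mul, al_smul, be_smul, map_mul]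
  ring

variable (hK : Fintype.card K = 4) (hn : n ^ 2 - (-n + (-1)) = 0) (hθ : θ * θ = θ + i n)

include i hK in
theorem two_E : (2 : E) = 0 := by
  have h := congrArg i (G24.two_four hK)
  rwa [map_ofNat, map_zero] at h

include hK in
theorem pow_K (a : K) : i a ^ 4 = i a := by
  rw [← map_pow]
  congr 1
  have := FiniteField.pow_card a
  rwa [hK] at this

include hK hn hθ in
theorem conj4 (a b : K) : (i a + i b * θ) ^ 4 = i a + i b * (θ + 1) := by
  have h2 := two_E i hK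
  have h4 : θ ^ 4 = θ + 1 := by
    have h5 : i n ^ 2 - (-i n + (-1)) = 0 := by
      have := congrArg i hn
      simpa using this
    linear_combination (θ * θ + θ + i n + 1) * hθ + h5 + (θ * i n - 1) * h2
  have ha := pow_K i hK a
  have hb := pow_K i hK b
  linear_combination ha + θ ^ 4 * hb + i b * h4 +
    (2 * i a ^ 3 * (i b * θ) + 3 * i a ^ 2 * (i b * θ) ^ 2 + 2 * i a * (i b * θ) ^ 3) * h2

include hK hn hθ in
theorem vE_lw {x : V K} (hx : Pp n x) : vE i θ n (zornMul (wp n 1) x) = θ • vE i θ n x := by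
  funext j
  simp only [vE, Pi.smul_apply, smul_eq_mul, al_lw (G24.two_four hK) hn hx, be_lw (G24.two_four hK) hn hx, map_add, map_mul]
  linear_combination (-i (be x j)) * hθ

include hK hn hθ in
theorem herm {x y : V K} (hx : Pp n x) (hy : Pp n y) : hermForm 3 E 4 (vE i θ n x) (vE i θ n y) =
    i (bl (zornMul (wp n 1) x) y + bl x y) + i (bl x y) * θ := by
  have h2 := two_E i hK
  have key : ∀ a b c d : K, (i a + i b * θ) * (i c + i d * (θ + 1)) =
      i (a * c + a * d + n * b * d) + i (a * d + b * c) * θ := by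
    intro a b c d
    simp only [map_add, map_mul]
    linear_combination (i b * i d) * hθ + (i b * i d * θ) * h2
  rw [← form0 (G24.two_four hK) hn hx hy, ← form1 (G24.two_four hK) hn hx hy, map_sum, map_sum, Finset.sum_mul,
    ← Finset.sum_add_distrib]
  unfold hermForm
  apply Finset.sum_congr rfl
  intro j _
  rw [← key]
  simp only [vE]
  rw [conj4 i hK hn hθ]

/-- the matrix -/
def mat (i : K →+* E) (θ : E) (n : K) (g : V K ≃ₗ[K] V K) : Matrix (Fin 3) (Fin 3) E :=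
  Matrix.of fun r j => vE i θ n (g (uu K j)) r

include hK in
theorem Pp_map {g : V K ≃ₗ[K] V K} (hg : g ∈ AutO K) (hw : g (wp n 1) = wp n 1) {x : V K} (hx : Pp n x) : Pp n (g x) := by
  have h2 := G24.two_four hK
  rw [Pp_iff h2] at hx ⊢
  refine ⟨by rw [map_tr hg, hx.1], ?_⟩
  rw [← hw, map_bl hg, hx.2]

include hK hn hθ in
theorem vE_map {g : V K ≃ₗ[K] V K} (hg : g ∈ AutO K) (hw : g (wp n 1) = wp n 1) {x : V K} (hx : Pp n x) :
    vE i θ n (g x) = mat i θ n g *ᵥ vE i θ n x := by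
  have h2 := G24.two_four hK
  have h3 : g x = ∑ j, (al n x j • g (uu K j) + be x j • zornMul (wp n 1) (g (uu K j))) := by
    conv_lhs => rw [decomp h2 hx, map_sum]
    apply Finset.sum_congr rfl
    intro j _
    rw [map_add, map_smul, map_smul, mem_AutO.1 hg, hw]
  have h4 : ∀ j, vE i θ n (zornMul (wp n 1) (g (uu K j))) = θ • vE i θ n (g (uu K j)) := fun j =>
    vE_lw i hK hn hθ (Pp_map hK hg hw (Pp_uu j))
  rw [h3, Fin.sum_univ_three]
  simp only [vE_add, vE_smul, h4]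
  funext r
  rw [Matrix.mulVec, dotProduct, Fin.sum_univ_three]
  simp only [Pi.add_apply, Pi.smul_apply, smul_eq_mul, mat, Matrix.of_apply]
  conv_rhs => simp only [vE.eq_def i θ n x]
  ring

/-! #### bijectivity of the coordinates -/

variable (hsurj : ∀ e : E, ∃ a b : K, e = i a + i b * θ)

include hK hn hθ in
theorem indep {a b : K} (h : i a + i b * θ = 0) : a = 0 ∧ b = 0 := by
  have hb : b = 0 := by
    by_contra hb
    -- `θ` is in the image
    have h1 : θ = i (-(b⁻¹ * a)) := by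
      have hib : i b ≠ 0 := (map_ne_zero i).2 hb
      rw [map_neg, map_mul, map_inv₀]
      field_simp
      linear_combination h
    set t := -(b⁻¹ * a) with ht
    have h2 : t * t = t + n := by
      apply i.injective
      rw [map_mul, map_add, ← h1, hθ]
    have hn' : n * n + n + 1 = 0 := by linear_combination hn
    have q1 := G24.om_sq hK hn'
    have q4 := G24.om1_sq hK hn'
    rcases G24.cases_four hK hn' t with h | h | h | h <;> rw [h] at h2
    · apply G24.om_ne_zero hn'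
      linear_combination -h2
    · apply G24.om_ne_zero hn'
      linear_combination -h2
    · rw [q1] at h2
      apply G24.om1_ne_zero hK hn'
      linear_combination h2 + n * G24.two_four hK
    · rw [q4] at h2
      apply G24.om1_ne_zero hK hn'
      linear_combination -h2
  rw [hb, map_zero, zero_mul, add_zero] at h
  exact ⟨(map_eq_zero i).1 h, hb⟩

include hK hn hθ in
theorem vE_inj {x y : V K} (hx : Pp n x) (hy : Pp n y) (h : vE i θ n x = vE i θ n y) : x = y := by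
  have h1 : ∀ j, al n x j = al n y j ∧ be x j = be y j := by
    intro j
    have h3 := congrFun h j
    simp only [vE] at h3
    have h4 := indep i hK hn hθ (a := al n x j - al n y j) (b := be x j - be y j) (by
      rw [map_sub, map_sub]
      linear_combination h3)
    exact ⟨sub_eq_zero.1 h4.1, sub_eq_zero.1 h4.2⟩
  rw [decomp (G24.two_four hK) hx, decomp (G24.two_four hK) hy]
  apply Finset.sum_congr rfl
  intro j _
  rw [(h1 j).1, (h1 j).2]

theorem Pp_add {x y : V K} (hx : Pp n x) (hy : Pp n y) : Pp n (x + y) := by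
  obtain ⟨h1, h2⟩ := hx
  obtain ⟨h3, h4⟩ := hy
  exact ⟨by rw [Pi.add_apply, Pi.add_apply, h1, h3], by simp only [Pi.add_apply]; rw [h2, h4]; ring⟩

theorem Pp_smul (c : K) {x : V K} (hx : Pp n x) : Pp n (c • x) := by
  obtain ⟨h1, h2⟩ := hx
  exact ⟨by rw [Pi.smul_apply, Pi.smul_apply, h1], by simp only [Pi.smul_apply, smul_eq_mul]; rw [h2]; ring⟩

include hK hn hθ in
theorem vE_uu (j : Fin 3) : vE i θ n (uu K j) = Pi.single j 1 := by
  funext k
  simp only [vE, al_uu (G24.two_four hK) hn, be_uu (G24.two_four hK) hn, map_zero, zero_mul, add_zero]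
  by_cases h : j = k
  · subst h
    simp
  · rw [if_neg h, map_zero, Pi.single_eq_of_ne (Ne.symm h)]

include hK hn hθ hsurj in
theorem vE_surj (v : Fin 3 → E) : ∃ x, Pp n x ∧ vE i θ n x = v := by
  choose a b hab using fun j => hsurj (v j)
  have h2 := G24.two_four hK
  have hP : ∀ j, Pp n (a j • uu K j + b j • zornMul (wp n 1) (uu K j)) := fun j =>
    Pp_add (Pp_smul _ (Pp_uu j)) (Pp_smul _ (Pp_lw h2 (Pp_uu j)))
  have hv : ∀ j, vE i θ n (a j • uu K j + b j • zornMul (wp n 1) (uu K j)) = v j • Pi.single j 1 := by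
    intro j
    rw [vE_add, vE_smul, vE_smul, vE_lw i hK hn hθ (Pp_uu j), vE_uu i hK hn hθ, smul_smul, ← add_smul, ← hab]
  refine ⟨(a 0 • uu K 0 + b 0 • zornMul (wp n 1) (uu K 0)) + (a 1 • uu K 1 + b 1 • zornMul (wp n 1) (uu K 1)) +
    (a 2 • uu K 2 + b 2 • zornMul (wp n 1) (uu K 2)), Pp_add (Pp_add (hP 0) (hP 1)) (hP 2), ?_⟩
  rw [vE_add, vE_add, hv, hv, hv]
  funext j
  fin_cases j <;> simp

include hK hn hθ in
theorem herm_mat {g : V K ≃ₗ[K] V K} (hg : g ∈ AutO K) (hw : g (wp n 1) = wp n 1)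
    (hsurj : ∀ e : E, ∃ a b : K, e = i a + i b * θ) (u v : Fin 3 → E) :
    hermForm 3 E 4 (mat i θ n g *ᵥ u) (mat i θ n g *ᵥ v) = hermForm 3 E 4 u v := by
  obtain ⟨x, hx, rfl⟩ := vE_surj i hK hn hθ hsurj u
  obtain ⟨y, hy, rfl⟩ := vE_surj i hK hn hθ hsurj v
  rw [← vE_map i hK hn hθ hg hw hx, ← vE_map i hK hn hθ hg hw hy, herm i hK hn hθ (Pp_map hK hg hw hx) (Pp_map hK hg hw hy),
    herm i hK hn hθ hx hy, map_bl hg]
  have h3 : zornMul (wp n 1) (g x) = g (zornMul (wp n 1) x) := by rw [mem_AutO.1 hg, hw]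
  rw [h3, map_bl hg]

/-- `u₀ u₁ = u₂` -/
theorem uu_mul (h2 : (2 : K) = 0) : zornMul (uu K 0) (uu K 1) = uu K 2 := by
  apply ext8 <;> simp only [mul0, mul1, mul2, mul3, mul4, mul5, mul6, mul7] <;> simp [uu]

include hK hn hθ in
theorem cross {x y : V K} (hx : Pp n x) (hy : Pp n y) (hz : Pp n (zornMul x y)) :
    vE i θ n (zornMul x y) 0 = (vE i θ n x 1 * vE i θ n y 2 + vE i θ n x 2 * vE i θ n y 1) ^ 4 ∧
    vE i θ n (zornMul x y) 1 = (vE i θ n x 2 * vE i θ n y 0 + vE i θ n x 0 * vE i θ n y 2) ^ 4 ∧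
    vE i θ n (zornMul x y) 2 = (vE i θ n x 0 * vE i θ n y 1 + vE i θ n x 1 * vE i θ n y 0) ^ 4 := by
  have h2 := G24.two_four hK
  have h2E := two_E i hK
  have key : ∀ a b c d a' b' c' d' : K, ((i a + i b * θ) * (i c + i d * θ) + (i a' + i b' * θ) * (i c' + i d' * θ)) ^ 4 =
      i (pr n a b c d + pi a b c d + (pr n a' b' c' d' + pi a' b' c' d')) +
        i (pi a b c d + pi a' b' c' d') * θ := by
    intro a b c d a' b' c' d'
    have k1 : (i a + i b * θ) * (i c + i d * θ) + (i a' + i b' * θ) * (i c' + i d' * θ) =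
        i (pr n a b c d + pr n a' b' c' d') + i (pi a b c d + pi a' b' c' d') * θ := by
      simp only [pr, pi, map_add, map_mul]
      linear_combination (i b * i d + i b' * i d') * hθ
    rw [k1, conj4 i hK hn hθ]
    simp only [map_add]
    ring
  refine ⟨?_, ?_, ?_⟩
  · simp only [vE]
    rw [key, cross01 h2 hn hx hy hz, cross02 h2 hn hx hy hz]
  · simp only [vE]
    rw [key, cross11 h2 hn hx hy, cross12 h2 hn hx hy]
  · simp only [vE]
    rw [key, cross21 h2 hn hx hy, cross22 h2 hn hx hy]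

include hK hn hθ in
theorem det_mat [Fintype E] (hE : Fintype.card E = 16) {g : V K ≃ₗ[K] V K} (hg : g ∈ AutO K)
    (hw : g (wp n 1) = wp n 1) (hsurj : ∀ e : E, ∃ a b : K, e = i a + i b * θ) : (mat i θ n g).det = 1 := by
  have h2 := G24.two_four hK
  have h2E := two_E i hK
  have hX := Pp_map hK hg hw (Pp_uu (K := K) 0)
  have hY := Pp_map hK hg hw (Pp_uu (K := K) 1)
  have hZ := Pp_map hK hg hw (Pp_uu (K := K) 2)
  have hgm : g (uu K 2) = zornMul (g (uu K 0)) (g (uu K 1)) := by rw [← mem_AutO.1 hg, uu_mul h2]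
  have hZ' := hZ
  rw [hgm] at hZ'
  obtain ⟨c0, c1, c2⟩ := cross i hK hn hθ hX hY hZ'
  rw [← hgm] at c0 c1 c2
  have h16 : ∀ e : E, (e ^ 4) ^ 4 = e := by
    intro e
    rw [← pow_mul]
    have := FiniteField.pow_card e
    rwa [hE] at this
  have hh : hermForm 3 E 4 (vE i θ n (g (uu K 2))) (vE i θ n (g (uu K 2))) = 1 := by
    rw [vE_map i hK hn hθ hg hw (Pp_uu 2), herm_mat i hK hn hθ hg hw hsurj, vE_uu i hK hn hθ]
    unfold hermForm
    rw [Fin.sum_univ_three]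
    simp
  have hh' : vE i θ n (g (uu K 2)) 0 * (vE i θ n (g (uu K 0)) 1 * vE i θ n (g (uu K 1)) 2 +
        vE i θ n (g (uu K 0)) 2 * vE i θ n (g (uu K 1)) 1) +
      vE i θ n (g (uu K 2)) 1 * (vE i θ n (g (uu K 0)) 2 * vE i θ n (g (uu K 1)) 0 +
        vE i θ n (g (uu K 0)) 0 * vE i θ n (g (uu K 1)) 2) +
      vE i θ n (g (uu K 2)) 2 * (vE i θ n (g (uu K 0)) 0 * vE i θ n (g (uu K 1)) 1 +
        vE i θ n (g (uu K 0)) 1 * vE i θ n (g (uu K 1)) 0) = 1 := by
    rw [← hh]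
    unfold hermForm
    rw [Fin.sum_univ_three]
    have d0 := (congrArg (fun z => z ^ 4) c0).trans (h16 _)
    have d1 := (congrArg (fun z => z ^ 4) c1).trans (h16 _)
    have d2 := (congrArg (fun z => z ^ 4) c2).trans (h16 _)
    rw [d0, d1, d2]
  rw [Matrix.det_fin_three]
  simp only [mat, Matrix.of_apply]
  linear_combination hh' - (vE i θ n (g (uu K 0)) 0 * vE i θ n (g (uu K 2)) 1 * vE i θ n (g (uu K 1)) 2 +
    vE i θ n (g (uu K 1)) 0 * vE i θ n (g (uu K 0)) 1 * vE i θ n (g (uu K 2)) 2 +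
    vE i θ n (g (uu K 2)) 0 * vE i θ n (g (uu K 1)) 1 * vE i θ n (g (uu K 0)) 2) * h2E

end field

end Cfsg.Agent.H814.LLE
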