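import Cfsg.Agent.H814.LLEquiv

/-!
# `LL n 1 ≃* SU 3 E 4` (helper814)
-/

set_option autoImplicit false
set_option linter.unusedSectionVars false
set_option linter.unusedSimpArgs false

namespace Cfsg.Agent.H814.LLE

open Cfsg.Lie Cfsg.Agent.H161.Oct Cfsg.Agent.H148.Oct Matrix

variable {K : Type*} [Field K] [Fintype K] {n : K} {E : Type*} [Field E] (i : K →+* E) {θ : E}
  (hK : Fintype.card K = 4) (hn : n ^ 2 - (-n + (-1)) = 0) (hθ : θ * θ = θ + i n)

include hK hn hθ in
theorem mat_mul {g g' : V K ≃ₗ[K] V K} (hg : g ∈ AutO K) (hw : g (wp n 1) = wp n 1) (hg' : g' ∈ AutO K)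
    (hw' : g' (wp n 1) = wp n 1) : mat i θ n (g * g') = mat i θ n g * mat i θ n g' := by
  ext r j
  have h1 : mat i θ n (g * g') r j = vE i θ n (g (g' (uu K j))) r := rfl
  rw [h1, vE_map i hK hn hθ hg hw (Pp_map hK hg' hw' (Pp_uu j))]
  rfl

include hK hn hθ in
theorem mat_one : mat i θ n (1 : V K ≃ₗ[K] V K) = 1 := by
  ext r j
  have h1 : mat i θ n (1 : V K ≃ₗ[K] V K) r j = vE i θ n (uu K j) r := rfl
  rw [h1, vE_uu i hK hn hθ, Matrix.one_apply]
  by_cases h : r = j
  · subst h
    simp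
  · rw [if_neg h, Pi.single_eq_of_ne h]

include hK hn hθ in
theorem eq_one_of_mat {g : V K ≃ₗ[K] V K} (hg : g ∈ AutO K) (hw : g (wp n 1) = wp n 1) (h : mat i θ n g = 1) : g = 1 := by
  have h2 := G24.two_four hK
  have h1 : ∀ x, Pp n x → g x = x := by
    intro x hx
    apply vE_inj i hK hn hθ (Pp_map hK hg hw hx) hx
    rw [vE_map i hK hn hθ hg hw hx, h, Matrix.one_mulVec]
  apply LinearEquiv.ext
  intro x
  set a := x 0 + x 5 + n * x 2 with ha
  set b := x 0 + x 7 with hb
  have e0 : (wp n 1 : V K) 0 = 0 := rfl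
  have e2 : (wp n 1 : V K) 2 = 1 := rfl
  have e5 : (wp n 1 : V K) 5 = -n := rfl
  have e7 : (wp n 1 : V K) 7 = 1 := rfl
  have h3 : Pp n (x - (a • o + b • wp n 1)) := by
    refine ⟨?_, ?_⟩
    · simp only [Pi.sub_apply, Pi.add_apply, Pi.smul_apply, smul_eq_mul, o0, o7, e0, e7, hb]
      linear_combination (-x 0) * h2
    · simp only [Pi.sub_apply, Pi.add_apply, Pi.smul_apply, smul_eq_mul, o0, o5, o2, e0, e2, e5, hb, ha]
      linear_combination (x 5 + n * x 0 + n * x 7) * h2
  have h4 : g (x - (a • o + b • wp n 1)) = x - (a • o + b • wp n 1) := h1 _ h3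
  have h5 : g (a • o + b • wp n 1) = a • o + b • wp n 1 := by rw [map_add, map_smul, map_smul, map_o hg, hw]
  have h6 : x = (x - (a • o + b • wp n 1)) + (a • o + b • wp n 1) := by rw [sub_add_cancel]
  show g x = x
  rw [h6, map_add, h4, h5]

/-- the homomorphism -/
def hom [Fintype E] (hE : Fintype.card E = 16) (hK : Fintype.card K = 4) (hn : n ^ 2 - (-n + (-1)) = 0)
    (hθ : θ * θ = θ + i n) (hsurj : ∀ e : E, ∃ a b : K, e = i a + i b * θ) :
    ↥(LL n (1 : K)) →* ↥(Cfsg.SU 3 E 4) where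
  toFun g := ⟨⟨mat i θ n g.1.1, det_mat i hK hn hθ hE g.1.2 (mem_LL.1 g.2) hsurj⟩,
    herm_mat i hK hn hθ g.1.2 (mem_LL.1 g.2) hsurj⟩
  map_one' := by
    apply Subtype.ext
    apply Subtype.ext
    exact mat_one i hK hn hθ
  map_mul' g g' := by
    apply Subtype.ext
    apply Subtype.ext
    exact mat_mul i hK hn hθ g.1.2 (mem_LL.1 g.2) g'.1.2 (mem_LL.1 g'.2)

include hn hK in
theorem card_LL : Nat.card ↥(LL n (1 : K)) = 62400 := by
  have hn' : n * n + n + 1 = 0 := by linear_combination hn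
  have h2 := G24.two_four hK
  have hex : ∃ a : K, a ≠ 0 ∧ a ≠ 1 := ⟨n, G24.om_ne_zero hn', G24.om_ne_one hK hn'⟩
  have hd : (1 : K) ^ 2 ≠ 4 * n := by
    intro h
    apply one_ne_zero (α := K)
    linear_combination h + 2 * n * h2
  have h3 := card_LL_mul hex hd
  have hroots : ∀ α : K, α ^ 2 - 1 * α + n ≠ 0 := by
    intro t h
    have q1 := G24.om_sq hK hn'
    have q4 := G24.om1_sq hK hn'
    rcases G24.cases_four hK hn' t with h' | h' | h' | h' <;> rw [h'] at h
    · apply G24.om_ne_zero hn'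
      linear_combination h
    · apply G24.om_ne_zero hn'
      linear_combination h
    · apply G24.om1_ne_zero hK hn'
      linear_combination h - q1
    · apply G24.om1_ne_zero hK hn'
      linear_combination h - q4 + h2
  rw [card_Gam, card_roots_ns hroots, card_AutO, hK] at h3
  norm_num at h3
  omega

/-- the homomorphism is bijective -/
theorem hom_bijective [Fintype E] (hE : Fintype.card E = 16) (hsurj : ∀ e : E, ∃ a b : K, e = i a + i b * θ) :
    Function.Bijective (hom i hE hK hn hθ hsurj) := by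
  haveI : Finite (V K ≃ₗ[K] V K) := Finite.of_injective (fun f => (f : V K → V K)) DFunLike.coe_injective
  haveI : Finite (Matrix.SpecialLinearGroup (Fin 3) E) := inferInstance
  refine (Nat.bijective_iff_injective_and_card _).2 ⟨?_, ?_⟩
  · rw [injective_iff_map_eq_one]
    intro g hg
    apply Subtype.ext
    apply Subtype.ext
    refine eq_one_of_mat i hK hn hθ g.1.2 (mem_LL.1 g.2) ?_
    exact congrArg (fun y : ↥(Cfsg.SU 3 E 4) => y.1.1) hg
  · rw [card_LL hK hn, Cfsg.Agent.H583.SylRows.card_SU3 (F := E) (q := 4) (by rw [hE]; norm_num)]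
    norm_num

open Polynomial in
/-- the field -/
theorem exists_field {K : Type} [Field K] [Fintype K] (hK : Fintype.card K = 4) {n : K}
    (hn : n ^ 2 - (-n + (-1)) = 0) : ∃ (E : Type) (_ : Field E) (_ : Fintype E) (i : K →+* E) (θ : E),
      Fintype.card E = 16 ∧ θ * θ = θ + i n ∧ ∀ e : E, ∃ a b : K, e = i a + i b * θ := by
  have hn' : n * n + n + 1 = 0 := by linear_combination hn
  have h2 := G24.two_four hK
  set p : K[X] := X ^ 2 - X - C n with hp
  have hdeg : p.natDegree = 2 := by rw [hp]; compute_degree!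
  have hmon : p.Monic := by
    rw [hp]
    monicity!
  have hroots : ∀ t : K, t * t - t - n ≠ 0 := by
    intro t h
    have q1 := G24.om_sq hK hn'
    have q4 := G24.om1_sq hK hn'
    rcases G24.cases_four hK hn' t with h' | h' | h' | h' <;> rw [h'] at h
    · apply G24.om_ne_zero hn'
      linear_combination -h
    · apply G24.om_ne_zero hn'
      linear_combination -h
    · apply G24.om1_ne_zero hK hn'
      linear_combination h - q1 + n * h2
    · apply G24.om1_ne_zero hK hn'
      linear_combination -h + q4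
  have hirr : Irreducible p := by
    rw [hmon.irreducible_iff_roots_eq_zero_of_degree_le_three (by omega) (by omega)]
    rw [Multiset.eq_zero_iff_forall_notMem]
    intro t ht
    rw [mem_roots hmon.ne_zero, IsRoot.def, hp] at ht
    simp only [eval_sub, eval_pow, eval_X, eval_C] at ht
    apply hroots t
    linear_combination ht
  haveI : Fact (Irreducible p) := ⟨hirr⟩
  have hθ : (AdjoinRoot.root p) * (AdjoinRoot.root p) = AdjoinRoot.root p + AdjoinRoot.of p n := by
    have h3 : AdjoinRoot.mk p (X ^ 2 - X - C n) = 0 := AdjoinRoot.mk_self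
    simp only [map_sub, map_pow, AdjoinRoot.mk_X, AdjoinRoot.mk_C] at h3
    linear_combination h3
  have hsurj : ∀ e : AdjoinRoot p, ∃ a b : K, e = AdjoinRoot.of p a + AdjoinRoot.of p b * AdjoinRoot.root p := by
    intro e
    obtain ⟨f, rfl⟩ := AdjoinRoot.mk_surjective e
    have h3 : (f %ₘ p).degree ≤ 1 := by
      have h4 := degree_modByMonic_lt f hmon
      rw [degree_eq_natDegree hmon.ne_zero, hdeg] at h4
      exact Order.le_of_lt_succ h4
    have h5 := eq_X_add_C_of_degree_le_one h3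
    refine ⟨(f %ₘ p).coeff 0, (f %ₘ p).coeff 1, ?_⟩
    have h6 : AdjoinRoot.mk p f = AdjoinRoot.mk p (f %ₘ p) := by
      conv_lhs => rw [← modByMonic_add_div f p]
      rw [map_add, map_mul, AdjoinRoot.mk_self, zero_mul, add_zero]
    rw [h6]
    conv_lhs => rw [h5]
    rw [map_add, map_mul, AdjoinRoot.mk_C, AdjoinRoot.mk_C, AdjoinRoot.mk_X, add_comm]
  have hbij : Function.Bijective (fun x : K × K => AdjoinRoot.of p x.1 + AdjoinRoot.of p x.2 * AdjoinRoot.root p) := by
    constructor
    · intro x y hxy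
      simp only at hxy
      have h3 := indep (AdjoinRoot.of p) hK hn hθ (a := x.1 - y.1) (b := x.2 - y.2) (by
        rw [map_sub, map_sub]
        linear_combination hxy)
      exact Prod.ext (sub_eq_zero.1 h3.1) (sub_eq_zero.1 h3.2)
    · intro e
      obtain ⟨a, b, h⟩ := hsurj e
      exact ⟨(a, b), h.symm⟩
  letI : Fintype (AdjoinRoot p) := Fintype.ofBijective _ hbij
  refine ⟨AdjoinRoot p, inferInstance, inferInstance, AdjoinRoot.of p, AdjoinRoot.root p, ?_, hθ, hsurj⟩
  rw [← Fintype.card_of_bijective hbij, Fintype.card_prod, hK]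

/-- **The stabilizer of the field of order 16.** -/
theorem LL_equiv {K : Type} [Field K] [Fintype K] (hK : Fintype.card K = 4) {n : K} (hn : n ^ 2 + n + 1 = 0) :
    ∃ (E : Type) (_ : Field E) (_ : Fintype E), Fintype.card E = 16 ∧
      Nonempty (↥(LL n (1 : K)) ≃* ↥(Cfsg.SU 3 E 4)) := by
  have hn' : n ^ 2 - (-n + (-1)) = 0 := by linear_combination hn
  obtain ⟨E, iE, iF, i, θ, hE, hθ, hsurj⟩ := exists_field hK hn'
  exact ⟨E, iE, iF, hE, ⟨MulEquiv.ofBijective _ (hom_bijective i hK hn' hθ hE hsurj)⟩⟩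

end Cfsg.Agent.H814.LLE
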